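import Mathlib
import Cfsg.Prelude.Def_SolvableStructure
import Cfsg.Agent.Solv.SylowSystem
import Cfsg.Agent.Solv.Hall
import Cfsg.Agent.Solv.FrattiniNormal
import Cfsg.Agent.Grp.Card
import Cfsg.Agent.Grp.Fitting
import Cfsg.Agent.Grp.PChain
import Cfsg.Agent.S0007

/-!
Hall complement systems and system normalizers of finite solvable groups.
-/

set_option autoImplicit false

namespace Cfsg.Agent.Solv

open Subgroup
open scoped Pointwise

variable {G : Type*} [Group G]

theorem map_mk'_eq_bot_iff (N : Subgroup G) [N.Normal] (H : Subgroup G) :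
    H.map (QuotientGroup.mk' N) = ⊥ ↔ H ≤ N := by
  rw [Subgroup.map_eq_bot_iff, QuotientGroup.ker_mk']

theorem isPGroup_of_forall_prime_dvd {X : Type*} [Group X] [Finite X] {p : ℕ}
    (h : ∀ q : ℕ, q.Prime → q ∣ Nat.card X → q = p) : IsPGroup p X :=
  IsPGroup.of_card (Nat.eq_prime_pow_of_unique_prime_dvd Nat.card_pos.ne' fun {q} hq hd => h q hq hd)

/-- Chinese remainder theorem for cosets of subgroups with pairwise coprime indices. -/
theorem exists_forall_inv_mul_mem [Finite G] {ι : Type*} (K : ι → Subgroup G) (T : Finset ι)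
    (h : ∀ i ∈ T, ∀ j ∈ T, i ≠ j → (K i).index.Coprime (K j).index) (x : ι → G) :
    ∃ g : G, ∀ i ∈ T, (x i)⁻¹ * g ∈ K i := by
  classical
  induction T using Finset.induction_on with
  | empty => exact ⟨1, by simp⟩
  | insert j T hj ih =>
    have h' : ∀ i ∈ T, ∀ j ∈ T, i ≠ j → (K i).index.Coprime (K j).index := fun a ha b hb =>
      h a (Finset.mem_insert_of_mem ha) b (Finset.mem_insert_of_mem hb)
    obtain ⟨g, hg⟩ := ih h'
    have hc : (K j).index.Coprime (⨅ i ∈ T, K i : Subgroup G).index := by
      rw [index_biInf_eq_prod K T h']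
      refine Nat.Coprime.prod_right fun i hi => ?_
      exact h j (Finset.mem_insert_self _ _) i (Finset.mem_insert_of_mem hi)
        (fun e => hj (e ▸ hi))
    obtain ⟨k, hk, d, hd, e⟩ := (S0007.result _ _ hc).2 ((x j)⁻¹ * g)
    refine ⟨g * d⁻¹, fun i hi => ?_⟩
    rcases Finset.mem_insert.1 hi with rfl | hi
    · rw [← mul_assoc, e, mul_inv_cancel_right]; exact hk
    · rw [← mul_assoc]
      exact mul_mem (hg i hi) (inv_mem (mem_iInf.1 (mem_iInf.1 hd i) hi))

/-- Chinese remainder theorem for a family indexed by the primes, inside a subgroup `N`. -/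
theorem exists_forall_inv_mul_mem_primes [Finite G] (N : Subgroup G) (K : Nat.Primes → Subgroup G)
    (h : ∀ p : Nat.Primes, ∃ k, (K p).relIndex N = (p : ℕ) ^ k) (x : Nat.Primes → G)
    (hx : ∀ p, x p ∈ N) : ∃ g ∈ N, ∀ p, (x p)⁻¹ * g ∈ K p := by
  classical
  let T : Finset Nat.Primes := (Nat.card G).primeFactors.subtype Nat.Prime
  obtain ⟨g, hg⟩ := exists_forall_inv_mul_mem (fun p => (K p).subgroupOf N) T
    (fun i _ j _ hij => by
      obtain ⟨a, ha⟩ := h i
      obtain ⟨b, hb⟩ := h j
      change ((K i).relIndex N).Coprime ((K j).relIndex N)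
      rw [ha, hb]
      exact Nat.Coprime.pow _ _ ((Nat.coprime_primes i.2 j.2).2 fun e => hij (Subtype.ext e)))
    (fun p => ⟨x p, hx p⟩)
  refine ⟨g, g.2, fun p => ?_⟩
  by_cases hp : p ∈ T
  · exact hg p hp
  · obtain ⟨a, ha⟩ := h p
    have hd : (p : ℕ) ^ a ∣ Nat.card G :=
      ha ▸ (relIndex_dvd_card _ _).trans (card_subgroup_dvd_card N)
    have ha0 : a = 0 := by
      by_contra h0
      apply hp
      exact Finset.mem_subtype.2 (Nat.mem_primeFactors.2
        ⟨p.2, (dvd_pow_self _ h0).trans hd, Nat.card_pos.ne'⟩)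
    rw [ha0, pow_zero, relIndex_eq_one] at ha
    exact ha (mul_mem (inv_mem (hx p)) g.2)

/-- For a normal subgroup `N`, the index of `K ⊓ N` in `N` divides the index of `K`. -/
theorem relIndex_normal_dvd_index [Finite G] (K N : Subgroup G) [N.Normal] :
    K.relIndex N ∣ K.index := by
  have h1 := Grp.card_sup_mul_card_inf K N
  have h2 := Grp.card_inf_mul_relIndex' K N
  have h3 := Grp.card_mul_relIndex (le_sup_left : K ≤ K ⊔ N)
  have h4 : K.relIndex N = K.relIndex (K ⊔ N) := by
    rw [← h2, ← h3, mul_assoc, mul_comm (K.relIndex (K ⊔ N))] at h1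
    exact (Nat.eq_of_mul_eq_mul_left Nat.card_pos
      (Nat.eq_of_mul_eq_mul_left Nat.card_pos h1)).symm
  rw [h4]
  exact relIndex_dvd_index_of_le le_sup_left

/-- A subgroup normalizing `K` whose order is prime to the index of `K` lies in `K`. -/
theorem le_of_le_normalizer_of_coprime_index [Finite G] {A K : Subgroup G}
    (h : A ≤ normalizer (K : Set G)) (hc : (Nat.card A).Coprime K.index) : A ≤ K := by
  have h1 := Grp.card_sup_mul_card_inf_of_le_normalizer h
  have h2 := Grp.card_inf_mul_relIndex' K A
  have h3 := Grp.card_mul_relIndex (le_sup_right : K ≤ A ⊔ K)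
  have h4 : K.relIndex A = K.relIndex (A ⊔ K) := by
    rw [← h2, ← h3, inf_comm A K, mul_assoc, mul_comm _ (Nat.card K),
      mul_comm (K.relIndex (A ⊔ K))] at h1
    exact (Nat.eq_of_mul_eq_mul_left Nat.card_pos
      (Nat.eq_of_mul_eq_mul_left Nat.card_pos h1)).symm
  have h5 : K.relIndex A ∣ K.index := h4 ▸ relIndex_dvd_index_of_le le_sup_right
  exact relIndex_eq_one.1 (Nat.eq_one_of_dvd_coprimes hc (relIndex_dvd_card _ _) h5)

theorem not_dvd_card_of_index_eq_pow_factorization [Finite G] {p : ℕ} (hp : p.Prime)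
    {H : Subgroup G} (h : H.index = p ^ (Nat.card G).factorization p) : ¬ p ∣ Nat.card H := by
  intro hd
  have h1 : p ^ ((Nat.card G).factorization p + 1) ∣ Nat.card G := by
    conv_rhs => rw [← H.card_mul_index, h]
    rw [pow_succ']
    exact Nat.mul_dvd_mul_right hd _
  exact Nat.pow_succ_factorization_not_dvd Nat.card_pos.ne' hp h1

theorem isComplementSystem_iff [Finite G] {K : Nat.Primes → Subgroup G} :
    IsComplementSystem K ↔
      ∀ p : Nat.Primes, (∃ k, (K p).index = (p : ℕ) ^ k) ∧ ¬ (p : ℕ) ∣ Nat.card (K p) := by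
  constructor
  · intro h p
    exact ⟨⟨_, h p⟩, not_dvd_card_of_index_eq_pow_factorization p.2 (h p)⟩
  · intro h p
    obtain ⟨⟨k, hk⟩, h2⟩ := h p
    refine index_eq_pow_factorization p.2 h2 fun q hq hd => ?_
    rw [hk] at hd
    exact (Nat.prime_dvd_prime_iff_eq hq p.2).1 (hq.dvd_of_dvd_pow hd)

namespace CS

variable [Finite G] {K L : Nat.Primes → Subgroup G}

theorem not_dvd_card (hK : IsComplementSystem K) (p : Nat.Primes) : ¬ (p : ℕ) ∣ Nat.card (K p) :=
  (isComplementSystem_iff.1 hK p).2

theorem coprime_card (hK : IsComplementSystem K) (p : Nat.Primes) :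
    (Nat.card (K p)).Coprime p :=
  ((Nat.Prime.coprime_iff_not_dvd p.2).2 (not_dvd_card hK p)).symm

theorem coprime_card_index (hK : IsComplementSystem K) (p : Nat.Primes) :
    (Nat.card (K p)).Coprime (K p).index := by
  rw [hK p]; exact (coprime_card hK p).pow_right _

theorem card_eq (hK : IsComplementSystem K) (hL : IsComplementSystem L) (p : Nat.Primes) :
    Nat.card (K p) = Nat.card (L p) := by
  have h1 := (K p).card_mul_index
  rw [← (L p).card_mul_index, hK p, hL p] at h1
  exact Nat.eq_of_mul_eq_mul_right (pow_pos p.2.pos _) h1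

theorem relIndex_normal (hK : IsComplementSystem K) (N : Subgroup G) [N.Normal] (p : Nat.Primes) :
    ∃ k, (K p).relIndex N = (p : ℕ) ^ k := by
  have := relIndex_normal_dvd_index (K p) N
  rw [hK p] at this
  obtain ⟨k, -, hk⟩ := (Nat.dvd_prime_pow p.2).1 this
  exact ⟨k, hk⟩

theorem map {G' : Type*} [Group G'] (hK : IsComplementSystem K) (f : G →* G')
    (hf : Function.Surjective f) : IsComplementSystem (fun p => (K p).map f) := by
  haveI : Finite G' := Finite.of_surjective f hf
  rw [isComplementSystem_iff]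
  intro p
  constructor
  · have := index_map_dvd (K p) hf
    rw [hK p] at this
    obtain ⟨k, -, hk⟩ := (Nat.dvd_prime_pow p.2).1 this
    exact ⟨k, hk⟩
  · exact fun h => not_dvd_card hK p (h.trans (card_map_dvd _ _))

theorem conj (hK : IsComplementSystem K) (g : G) :
    IsComplementSystem (fun p => MulAut.conj g • K p) :=
  map hK (MulAut.conj g).toMonoidHom (MulAut.conj g).surjective

/-- A complement system *reducing into* `H` induces a complement system of `H`. -/
theorem subgroupOf (hK : IsComplementSystem K) (H : Subgroup G)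
    (h : ∀ p : Nat.Primes, ∃ k, (K p).relIndex H = (p : ℕ) ^ k) :
    IsComplementSystem (fun p => (K p).subgroupOf H) := by
  rw [isComplementSystem_iff]
  intro p
  refine ⟨h p, fun hd => not_dvd_card hK p (hd.trans ?_)⟩
  rw [Grp.card_subgroupOf]
  exact card_dvd_of_le inf_le_left

/-- Complement systems which agree modulo a normal subgroup `N` are conjugate under `N`. -/
theorem exists_conj_mem [Group.IsSolvable G] (hK : IsComplementSystem K)
    (hL : IsComplementSystem L) (N : Subgroup G) [N.Normal] (h : ∀ p, L p ≤ K p ⊔ N) :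
    ∃ n ∈ N, ∀ p, MulAut.conj n • K p = L p := by
  have key : ∀ p, ∃ n ∈ N, MulAut.conj n • K p = L p := by
    intro p
    obtain ⟨m, hm, e⟩ := hall_conj_in (M := K p ⊔ N) (H := K p) (K := L p) le_sup_left (h p)
      (Nat.Coprime.coprime_dvd_right (relIndex_dvd_index_of_le le_sup_left)
        (coprime_card_index hK p)) (card_eq hK hL p)
    rw [sup_comm] at hm
    obtain ⟨n, hn, k, hk, rfl⟩ := mem_sup_of_normal_left.1 hm
    refine ⟨n, hn, ?_⟩
    rw [← e, map_mul, mul_smul, Grp.conj_smul_eq_of_mem hk]
  choose x hx hxe using key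
  obtain ⟨g, hg, hgx⟩ := exists_forall_inv_mul_mem_primes N K (relIndex_normal hK N) x hx
  refine ⟨g, hg, fun p => ?_⟩
  rw [← hxe p, ← mul_inv_cancel_left (x p) g, map_mul, mul_smul, Grp.conj_smul_eq_of_mem (hgx p)]

theorem exists_conj [Group.IsSolvable G] (hK : IsComplementSystem K)
    (hL : IsComplementSystem L) : ∃ g : G, ∀ p, MulAut.conj g • K p = L p := by
  obtain ⟨g, -, hg⟩ := exists_conj_mem hK hL ⊤ (fun p => by simp)
  exact ⟨g, hg⟩

/-- A normal subgroup of order prime to `p` lies in the `p`-complement. -/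
theorem le_of_normal (hK : IsComplementSystem K) (p : Nat.Primes) {N : Subgroup G} [N.Normal]
    (h : (Nat.card N).Coprime p) : N ≤ K p := by
  apply Grp.le_of_coprime_card_index
  rw [hK p]; exact h.pow_right _

end CS

theorem exists_isComplementSystem (G : Type*) [Group G] [Finite G] [Group.IsSolvable G] :
    ∃ K : Nat.Primes → Subgroup G, IsComplementSystem K := by
  choose K hK using fun p : Nat.Primes => exists_pComplement (G := G) p.2
  exact ⟨K, hK⟩

/-- For every subgroup `H` of a finite solvable group there is a complement system reducing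
into `H`. -/
theorem exists_isComplementSystem_reduces [Finite G] [Group.IsSolvable G] (H : Subgroup G) :
    ∃ K : Nat.Primes → Subgroup G, IsComplementSystem K ∧
      ∀ p : Nat.Primes, ∃ k, (K p).relIndex H = (p : ℕ) ^ k := by
  obtain ⟨K, hK⟩ := exists_isComplementSystem G
  obtain ⟨L, hL⟩ := exists_isComplementSystem H
  have key : ∀ p, ∃ g : G, (L p).map H.subtype ≤ MulAut.conj g • K p := by
    intro p
    refine exists_le_conj_hall (CS.coprime_card_index hK p) ?_
    rw [card_subtype, hK p]
    exact (CS.coprime_card hL p).pow_right _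
  choose x hx using key
  refine ⟨fun p => MulAut.conj (x p) • K p, fun p => CS.conj hK (x p) p, fun p => ?_⟩
  have h1 : (MulAut.conj (x p) • K p).relIndex H ∣ (L p).index :=
    index_dvd_of_le (map_le_iff_le_comap.1 (hx p))
  rw [hL p] at h1
  obtain ⟨k, -, hk⟩ := (Nat.dvd_prime_pow p.2).1 h1
  exact ⟨k, hk⟩

theorem mem_systemNormalizer_iff {K : Nat.Primes → Subgroup G} {g : G} :
    g ∈ systemNormalizer K ↔ ∀ p, MulAut.conj g • K p = K p := by
  simp only [systemNormalizer, mem_iInf, Grp.conj_smul_eq_iff_mem_normalizer]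

theorem systemNormalizer_le (K : Nat.Primes → Subgroup G) (p : Nat.Primes) :
    systemNormalizer K ≤ normalizer (K p : Set G) := iInf_le _ p

theorem map_systemNormalizer_le {G' : Type*} [Group G'] (K : Nat.Primes → Subgroup G)
    (f : G →* G') : (systemNormalizer K).map f ≤ systemNormalizer (fun p => (K p).map f) :=
  le_iInf fun p => (map_mono (systemNormalizer_le K p)).trans (le_normalizer_map f)

theorem systemNormalizer_conj (K : Nat.Primes → Subgroup G) (g : G) :
    systemNormalizer (fun p => MulAut.conj g • K p) = MulAut.conj g • systemNormalizer K := by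
  ext x
  rw [Grp.mem_conj_smul_iff, mem_systemNormalizer_iff, mem_systemNormalizer_iff]
  refine forall_congr' fun p => ?_
  rw [smul_smul, ← map_mul, map_mul, map_mul, map_mul, mul_assoc, mul_smul (MulAut.conj g⁻¹),
    map_inv, inv_smul_eq_iff]

/-- System normalizers pass to quotients. -/
theorem systemNormalizer_map [Finite G] [Group.IsSolvable G] {G' : Type*} [Group G']
    {K : Nat.Primes → Subgroup G} (hK : IsComplementSystem K) (f : G →* G')
    (hf : Function.Surjective f) :
    systemNormalizer (fun p => (K p).map f) = (systemNormalizer K).map f := by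
  refine le_antisymm (fun y hy => ?_) (map_systemNormalizer_le K f)
  obtain ⟨g, rfl⟩ := hf y
  rw [mem_systemNormalizer_iff] at hy
  obtain ⟨n, hn, e⟩ := CS.exists_conj_mem hK (CS.conj hK g) f.ker (fun p => by
    rw [← comap_map_eq, ← map_le_iff_le_comap, Grp.map_conj_smul, hy p])
  refine ⟨n⁻¹ * g, ?_, by rw [map_mul, map_inv, MonoidHom.mem_ker.1 hn, inv_one, one_mul]⟩
  refine mem_systemNormalizer_iff.2 fun p => ?_
  rw [map_mul, mul_smul, ← e p, map_inv, inv_smul_smul]

/-- System normalizers are nilpotent. -/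
theorem isNilpotent_systemNormalizer [Finite G] {K : Nat.Primes → Subgroup G}
    (hK : IsComplementSystem K) : Group.IsNilpotent (systemNormalizer K) := by
  rw [Grp.isNilpotent_iff_forall_sylow_normal]
  intro p hp S
  obtain ⟨T, hTle, hle, hDT⟩ : ∃ T : Subgroup G, (∀ q : Nat.Primes, (q : ℕ) ≠ p → T ≤ K q) ∧
      (∀ X : Subgroup G, (∀ q : Nat.Primes, (q : ℕ) ≠ p → X ≤ K q) → X ≤ T) ∧
      systemNormalizer K ≤ normalizer (T : Set G) := by
    refine ⟨⨅ q : {q : Nat.Primes // (q : ℕ) ≠ p}, K q, fun q hq =>
      iInf_le (fun q : {q : Nat.Primes // (q : ℕ) ≠ p} => K q) ⟨q, hq⟩,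
      fun X hX => le_iInf fun q => hX q.1 q.2, ?_⟩
    refine le_trans ?_ (iInf_normalizer_le_normalizer_iInf _)
    exact le_iInf fun q => systemNormalizer_le K q.1
  have hTp : IsPGroup p T := by
    refine isPGroup_of_forall_prime_dvd fun q hq hd => ?_
    by_contra hqp
    exact CS.not_dvd_card hK ⟨q, hq⟩ (hd.trans (card_dvd_of_le (hTle ⟨q, hq⟩ hqp)))
  have hST : (S : Subgroup (systemNormalizer K)) ≤ T.subgroupOf (systemNormalizer K) := by
    refine map_le_iff_le_comap.1 (hle _ fun q hq => le_of_le_normalizer_of_coprime_index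
      ((map_subtype_le _).trans (systemNormalizer_le K q)) ?_)
    rw [card_subtype, hK q, S.card_eq_multiplicity]
    exact Nat.Coprime.pow _ _ ((Nat.coprime_primes hp.out q.2).2 hq.symm)
  have h2 : T.subgroupOf (systemNormalizer K) = S := S.is_maximal' (hTp.comap_subtype) hST
  rw [← h2]
  exact normal_subgroupOf_of_le_normalizer hDT

theorem center_le_systemNormalizer (K : Nat.Primes → Subgroup G) :
    center G ≤ systemNormalizer K :=
  le_iInf fun _ => center_le_normalizer _

/-- The normal closure of a system normalizer is the whole group. -/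
theorem normalClosure_systemNormalizer [Finite G] [Group.IsSolvable G]
    {K : Nat.Primes → Subgroup G} (hK : IsComplementSystem K) :
    normalClosure ((systemNormalizer K : Subgroup G) : Set G) = ⊤ := by
  set M := normalClosure ((systemNormalizer K : Subgroup G) : Set G)
  by_contra hM
  haveI : Nontrivial (G ⧸ M) := QuotientGroup.nontrivial_iff.2 hM
  set N := (commutator (G ⧸ M)).comap (QuotientGroup.mk' M)
  have hN : N ≠ ⊤ := by
    intro h
    have := congrArg (Subgroup.map (QuotientGroup.mk' M)) h
    rw [map_comap_eq_self_of_surjective (QuotientGroup.mk'_surjective M),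
      map_top_of_surjective _ (QuotientGroup.mk'_surjective M)] at this
    exact (Group.IsSolvable.commutator_lt_top_of_nontrivial (G ⧸ M)).ne this
  have hMN : M ≤ N := QuotientGroup.le_comap_mk' M _
  have hc : commutator G ≤ N := by
    rw [← map_le_iff_le_comap, commutator_def, map_commutator]
    exact commutator_mono le_top le_top
  have h1 := systemNormalizer_map hK (QuotientGroup.mk' N) (QuotientGroup.mk'_surjective N)
  have h2 : (systemNormalizer K).map (QuotientGroup.mk' N) = ⊥ := by
    rw [Subgroup.map_eq_bot_iff, QuotientGroup.ker_mk']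
    exact le_normalClosure.trans hMN
  have h3 : center (G ⧸ N) = ⊤ := by
    rw [← commutator_eq_bot_iff_center_eq_top]
    have := (map_mk'_eq_bot_iff N _).2 hc
    rwa [commutator_def G, map_commutator,
      map_top_of_surjective _ (QuotientGroup.mk'_surjective N)] at this
  have h4 := center_le_systemNormalizer (fun p => (K p).map (QuotientGroup.mk' N))
  rw [h1, h2, h3, top_le_iff] at h4
  haveI : Nontrivial (G ⧸ N) := QuotientGroup.nontrivial_iff.2 hN
  exact bot_ne_top h4

/-- A system normalizer meets a non-central minimal normal subgroup trivially. -/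
theorem minNormal_inf_systemNormalizer_eq_bot [Finite G] [Group.IsSolvable G]
    {K : Nat.Primes → Subgroup G} (hK : IsComplementSystem K) (B : Subgroup G) [B.Normal]
    (hmin : ∀ N : Subgroup G, N.Normal → N ≤ B → N = ⊥ ∨ N = B) (hc : ¬ B ≤ center G) :
    B ⊓ systemNormalizer K = ⊥ := by
  have hB0 : B ≠ ⊥ := by rintro rfl; exact hc bot_le
  obtain ⟨hab, p, hp, hpow⟩ := Grp.minNormal_elementaryAbelian B hB0 hmin
  haveI := Fact.mk hp
  have hBp : IsPGroup p B := Grp.isPGroup_of_pow_eq_one hpow
  set C := centralizer (B : Set G) with hC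
  have hCt : C ≠ ⊤ := by
    intro h
    apply hc
    rw [← centralizer_univ, ← coe_top, le_centralizer_iff]
    exact h.ge
  haveI : Nontrivial (G ⧸ C) := QuotientGroup.nontrivial_iff.2 hCt
  obtain ⟨q, R, hq, hRn, hR0, -, -, hRq, -⟩ := Grp.exists_minNormal_elementaryAbelian (G ⧸ C)
  haveI := Fact.mk hq
  set f := QuotientGroup.mk' C
  have hf : Function.Surjective f := QuotientGroup.mk'_surjective C
  have hk : f.ker = C := QuotientGroup.ker_mk' C
  set R' := R.comap f with hR'
  -- `R'` does not centralize any non-identity element of `B`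
  have hBR : B ⊓ centralizer (R' : Set G) = ⊥ := by
    rcases hmin (B ⊓ centralizer (R' : Set G)) inferInstance inf_le_left with h | h
    · exact h
    · exfalso
      apply hR0
      have h1 : R' ≤ C := le_centralizer_iff.1 (inf_eq_left.1 h)
      rw [← map_comap_eq_self_of_surjective hf R, map_mk'_eq_bot_iff]
      exact h1
  have hqp : q ≠ p := by
    rintro rfl
    -- a `q`-group acting on the `q`-group `B` has non-trivial fixed points
    obtain ⟨S⟩ : Nonempty (Sylow q R') := inferInstance
    set S' := (S : Subgroup R').map R'.subtype with hS'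
    have hS'p : IsPGroup q S' := S.isPGroup'.map _
    have hSC : S' ⊔ C = R' := by
      have hle : S' ⊔ C ≤ R' := sup_le (map_subtype_le _) (hk.ge.trans (ker_le_comap f R))
      refine le_antisymm hle ?_
      rw [← relIndex_eq_one]
      have e1 : (S' ⊔ C).relIndex R' ∣ S'.relIndex R' := relIndex_dvd_of_le_left _ le_sup_left
      have e2 : (S' ⊔ C).relIndex R' ∣ C.relIndex R' := relIndex_dvd_of_le_left _ le_sup_right
      have e3 : C.relIndex R' = Nat.card R := by
        have := relIndex_ker R' f
        rwa [hk, hR', map_comap_eq_self_of_surjective hf] at this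
      obtain ⟨k, hk'⟩ := hRq.exists_card_eq
      rw [e3, hk'] at e2
      have e4 : ¬ q ∣ S'.relIndex R' := by
        rw [hS', relIndex, subgroupOf, comap_map_eq_self_of_injective R'.subtype_injective]
        exact S.not_dvd_index
      exact Nat.eq_one_of_dvd_coprimes
        (((Nat.Prime.coprime_iff_not_dvd hq).2 e4).symm.pow_right k) e1 e2
    have hBS : IsPGroup q (S' ⊔ B : Subgroup G) := hS'p.to_sup_of_normal_right hBp
    haveI := hBS.isNilpotent
    have h1 : B.subgroupOf (S' ⊔ B) ≠ ⊥ := by
      rw [Ne, subgroupOf_eq_bot, disjoint_iff, inf_eq_left.2 le_sup_right]; exact hB0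
    obtain ⟨u, hu, hu1, huc⟩ := Grp.PChain.exists_central_mod (B.subgroupOf (S' ⊔ B)) ⊥
      (fun h => h1 (le_bot_iff.1 h))
    have : (u : G) ∈ B ⊓ centralizer (R' : Set G) := by
      refine ⟨hu, ?_⟩
      rw [← hSC]
      refine (le_centralizer_iff.1 (sup_le ?_ ?_) : zpowers (u : G) ≤ _) (mem_zpowers _)
      · intro s hs
        rintro _ ⟨m, rfl⟩
        have := huc ⟨s, mem_sup_left hs⟩
        rw [mem_bot, commutatorElement_eq_one_iff_commute] at this
        exact congrArg Subtype.val (this.zpow_left m).eq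
      · exact centralizer_le (SetLike.coe_subset_coe.2 ((zpowers_le).2 hu))
    rw [hBR, mem_bot] at this
    exact hu1 (mem_bot.2 (Subtype.ext this))
  have hRK : R ≤ (K ⟨p, hp⟩).map f :=
    CS.le_of_normal (CS.map hK f hf) ⟨p, hp⟩ (Grp.coprime_card_of_isPGroup_of_ne hqp hRq)
  rw [eq_bot_iff, ← hBR]
  rintro b ⟨hb, hbD⟩
  refine ⟨hb, fun r hr => ?_⟩
  obtain ⟨k, hk', e⟩ := hRK hr
  have hkb : k * b = b * k := by
    have h1 : b * k * b⁻¹ * k⁻¹ ∈ B ⊓ K ⟨p, hp⟩ := by
      refine ⟨?_, (K _).mul_mem ((mem_normalizer_iff.1 (systemNormalizer_le K _ hbD) k).1 hk')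
        ((K _).inv_mem hk')⟩
      have : b * k * b⁻¹ * k⁻¹ = b * (k * b⁻¹ * k⁻¹) := by group
      rw [this]
      exact mul_mem hb (Normal.conj_mem inferInstance _ (inv_mem hb) k)
    rw [Grp.inf_eq_bot_of_isPGroup_of_coprime hBp (CS.coprime_card hK ⟨p, hp⟩), mem_bot] at h1
    calc k * b = (b * k * b⁻¹ * k⁻¹) * (k * b) := by rw [h1, one_mul]
      _ = b * k := by group
  have hc' : k⁻¹ * r ∈ C := by
    have : k⁻¹ * r ∈ f.ker := by rw [MonoidHom.mem_ker, map_mul, map_inv, e, inv_mul_cancel]
    rwa [hk] at this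
  have := hc' b hb
  calc r * b = k * (k⁻¹ * r * b) := by group
    _ = k * b * (k⁻¹ * r) := by rw [← this, mul_assoc]
    _ = b * r := by rw [hkb]; group

/-- A system normalizer covers central chief factors and avoids the others. -/
theorem systemNormalizer_cover_avoid [Finite G] [Group.IsSolvable G]
    {K : Nat.Primes → Subgroup G} (hK : IsComplementSystem K) (A B : Subgroup G) [A.Normal]
    [hB : B.Normal] (hAB : A ≤ B)
    (hchief : ∀ N : Subgroup G, N.Normal → A ≤ N → N ≤ B → N = A ∨ N = B) :
    (⁅B, (⊤ : Subgroup G)⁆ ≤ A → B ≤ A ⊔ systemNormalizer K) ∧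
      (¬ ⁅B, (⊤ : Subgroup G)⁆ ≤ A → B ⊓ systemNormalizer K ≤ A) := by
  set f := QuotientGroup.mk' A
  have hf : Function.Surjective f := QuotientGroup.mk'_surjective A
  have hk : f.ker = A := QuotientGroup.ker_mk' A
  have hiff : ⁅B, (⊤ : Subgroup G)⁆ ≤ A ↔ B.map f ≤ center (G ⧸ A) := by
    rw [← map_mk'_eq_bot_iff A, map_commutator, map_top_of_surjective f hf,
      commutator_eq_bot_iff_le_centralizer, coe_top, centralizer_univ]
  have h1 := systemNormalizer_map hK f hf
  constructor
  · intro h
    have h2 := (hiff.1 h).trans (center_le_systemNormalizer (fun p => (K p).map f))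
    rwa [h1, map_le_iff_le_comap, comap_map_eq, hk, sup_comm] at h2
  · intro h
    haveI := hB.map f hf
    have h2 := minNormal_inf_systemNormalizer_eq_bot (CS.map hK f hf) (B.map f) (by
      intro N hN hNB
      rcases hchief (N.comap f) (hN.comap f) (hk.ge.trans (ker_le_comap f N))
        ((comap_mono hNB).trans (comap_map_eq_self (hk.le.trans hAB)).le)
        with h | h
      · left
        rw [← map_comap_eq_self_of_surjective hf N, h, map_mk'_eq_bot_iff]
      · right
        rw [← h, map_comap_eq_self_of_surjective hf]) (fun h' => h (hiff.2 h'))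
    rw [← map_mk'_eq_bot_iff A, eq_bot_iff, ← h2, h1]
    exact map_inf_le _ _ _

end Cfsg.Agent.Solv
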