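import Mathlib
import Cfsg.Agent.Solv.SystemNormalizer
import Cfsg.Agent.Solv.Carter
import Cfsg.Agent.Solv.Coprime
import Cfsg.Agent.Solv.Supersolvable
import Cfsg.Agent.Grp.Frattini

/-!
System normalizers and Carter subgroups.
-/

set_option autoImplicit false

namespace Cfsg.Agent.Solv

open Subgroup
open scoped Pointwise

universe u

section

variable {G : Type*} [Group G]

theorem relIndex_inf_sup_inf_dvd [Finite G] (K C N : Subgroup G) [N.Normal] :
    ((K ⊓ C) ⊔ (K ⊓ N)).relIndex (C ⊔ N) ∣ K.relIndex C * K.relIndex N := by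
  have hn : K ⊓ C ≤ normalizer ((K ⊓ N : Subgroup G) : Set G) :=
    le_normalizer_inf (inf_le_left.trans le_normalizer) le_normalizer_of_normal
  have h1 := Grp.card_sup_mul_card_inf_of_le_normalizer hn
  have h2 := Grp.card_sup_mul_card_inf C N
  have h3 := Grp.card_mul_relIndex
    (sup_le_sup inf_le_right inf_le_right : (K ⊓ C) ⊔ (K ⊓ N) ≤ C ⊔ N)
  have h4 := Grp.card_inf_mul_relIndex' K C
  have h5 := Grp.card_inf_mul_relIndex' K N
  have h6 := Grp.card_inf_mul_relIndex' K (C ⊓ N)
  rw [← inf_inf_distrib_left] at h1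
  refine ⟨K.relIndex (C ⊓ N), ?_⟩
  have hpos : 0 < Nat.card (K ⊓ C : Subgroup G) * Nat.card (K ⊓ N : Subgroup G) :=
    Nat.mul_pos Nat.card_pos Nat.card_pos
  apply Nat.eq_of_mul_eq_mul_left hpos
  calc Nat.card (K ⊓ C : Subgroup G) * Nat.card (K ⊓ N : Subgroup G) *
        (K.relIndex C * K.relIndex N)
      = (Nat.card (K ⊓ C : Subgroup G) * K.relIndex C) *
        (Nat.card (K ⊓ N : Subgroup G) * K.relIndex N) := by ring
    _ = Nat.card (C ⊔ N : Subgroup G) * Nat.card (C ⊓ N : Subgroup G) := by rw [h4, h5, h2]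
    _ = _ := by rw [← h1, ← h3, ← h6]; ring

theorem relIndex_sup_normal_dvd_mul [Finite G] (K C N : Subgroup G) [N.Normal] :
    K.relIndex (C ⊔ N) ∣ K.relIndex C * K.relIndex N :=
  (relIndex_dvd_of_le_left _ (sup_le inf_le_left inf_le_left)).trans
    (relIndex_inf_sup_inf_dvd K C N)

theorem relIndex_map_map_dvd {G' : Type*} [Group G'] (f : G →* G') (K C : Subgroup G) :
    (K.map f).relIndex (C.map f) ∣ K.relIndex C := by
  rw [← relIndex_comap]
  exact relIndex_dvd_of_le_left _ (le_comap_map _ _)

/-- A `p'`-subgroup meeting a nilpotent subgroup `X` in a subgroup of `p`-power index meets it in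
`O_{p'}(X)`. -/
theorem inf_eq_map_pPrimeCore_of_isNilpotent [Finite G] {p : ℕ} [hp : Fact p.Prime]
    (K X : Subgroup G) (hX : Group.IsNilpotent X) (hK : (Nat.card K).Coprime p) {k : ℕ}
    (h : K.relIndex X = p ^ k) : K ⊓ X = (pPrimeCore p X).map X.subtype := by
  rw [← subgroupOf_map_subtype]
  congr 1
  apply le_antisymm
  · apply Grp.le_pPrimeCore_of_isNilpotent
    rw [Grp.card_subgroupOf]
    exact Nat.Coprime.coprime_dvd_left (card_dvd_of_le inf_le_left) hK
  · apply Grp.le_of_coprime_card_index
    change Nat.Coprime _ (K.relIndex X)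
    rw [h]
    exact (Grp.pPrimeCore_coprime p X).pow_right _

theorem normalizer_le_normalizer_inf_of_isNilpotent [Finite G] {p : ℕ} [hp : Fact p.Prime]
    (K X : Subgroup G) (hX : Group.IsNilpotent X) (hK : (Nat.card K).Coprime p) {k : ℕ}
    (h : K.relIndex X = p ^ k) :
    normalizer (X : Set G) ≤ normalizer ((K ⊓ X : Subgroup G) : Set G) := by
  rw [inf_eq_map_pPrimeCore_of_isNilpotent K X hX hK h]
  exact Grp.normalizer_le_normalizer_map_of_characteristic X _

theorem eq_of_le_of_index_dvd_pow [Finite G] {p k : ℕ} {B K : Subgroup G} (hBK : B ≤ K)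
    (hK : (Nat.card K).Coprime p) (h : B.index ∣ p ^ k) : B = K := by
  refine le_antisymm hBK (relIndex_eq_one.1 ?_)
  exact Nat.eq_one_of_dvd_coprimes (hK.pow_right k) (relIndex_dvd_card _ _)
    ((relIndex_dvd_index_of_le hBK).trans h)

end

/-- If a complement system reduces into a Carter subgroup `C`, its system normalizer lies
in `C`. -/
theorem systemNormalizer_le_carter (G : Type u) [Group G] [Finite G] (hG : Group.IsSolvable G)
    (K : Nat.Primes → Subgroup G) (hK : IsComplementSystem K) (C : Subgroup G)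
    (hC : IsCarterSubgroup C) (hr : ∀ p : Nat.Primes, ∃ k, (K p).relIndex C = (p : ℕ) ^ k) :
    systemNormalizer K ≤ C := by
  revert hG K C
  refine finite_group_induction (P := fun G _ _ => Group.IsSolvable G →
    ∀ (K : Nat.Primes → Subgroup G), IsComplementSystem K → ∀ (C : Subgroup G),
    IsCarterSubgroup C → (∀ p : Nat.Primes, ∃ k, (K p).relIndex C = (p : ℕ) ^ k) →
    systemNormalizer K ≤ C) G ?_
  intro G _ _ ih hG K hK C hC hr
  rcases subsingleton_or_nontrivial G with h | h
  · exact (Subsingleton.elim _ _).le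
  obtain ⟨p, N, hp, hNn, hN0, hNab, -, hNp, hNmin⟩ := Grp.exists_minNormal_elementaryAbelian G
  haveI := Fact.mk hp
  set f := QuotientGroup.mk' N
  have hf : Function.Surjective f := QuotientGroup.mk'_surjective N
  have hk : f.ker = N := QuotientGroup.ker_mk' N
  have h1 := ih (G ⧸ N) (card_quotient_lt_of_ne_bot N hN0) inferInstance _ (CS.map hK f hf) _
    (Carter.isCarter_map f hf hC) (fun q => by
      obtain ⟨k, hk⟩ := hr q
      have := relIndex_map_map_dvd f (K q) C
      rw [hk] at this
      obtain ⟨j, -, hj⟩ := (Nat.dvd_prime_pow q.2).1 this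
      exact ⟨j, hj⟩)
  have h2 : systemNormalizer K ≤ C ⊔ N := by
    have := (map_systemNormalizer_le K f).trans h1
    rwa [map_le_iff_le_comap, comap_map_eq, hk] at this
  by_cases hH : C ⊔ N = ⊤
  · set P : Nat.Primes := ⟨p, hp⟩
    obtain ⟨k, hk'⟩ := hr P
    have hKC : K P ≤ C := by
      obtain ⟨a, ha⟩ := hNp.exists_card_eq
      have e1 := Carter.index_dvd_card_of_sup_eq_top hH
      have e2 := relIndex_mul_index (inf_le_right : K P ⊓ C ≤ C)
      rw [inf_relIndex_right, hk'] at e2
      refine inf_eq_left.1 (eq_of_le_of_index_dvd_pow (k := k + a) inf_le_left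
        (CS.coprime_card hK P) ?_)
      rw [← e2, pow_add]
      exact Nat.mul_dvd_mul_left _ (ha ▸ e1)
    have hCM : C ≤ normalizer (K P : Set G) := by
      have := normalizer_le_normalizer_inf_of_isNilpotent (K P) C hC.1 (CS.coprime_card hK P) hk'
      rw [inf_eq_left.2 hKC] at this
      exact le_normalizer.trans this
    set M := normalizer (K P : Set G)
    have hMN : N ⊔ M = ⊤ := by
      rw [eq_top_iff, ← hH]
      exact sup_le (hCM.trans le_sup_right) le_sup_left
    rcases hNmin (N ⊓ M) (Grp.normal_inf_of_sup_eq_top hMN) inf_le_left with h0 | h0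
    · have := inf_sup_eq_of_le_normalizer' (M := N) hCM le_normalizer_of_normal
      rw [hH, inf_top_eq, inf_comm, h0, sup_bot_eq] at this
      rw [← this]
      exact systemNormalizer_le K P
    · have hM : M = ⊤ := by rw [← hMN, sup_eq_right.2 (inf_eq_left.1 h0)]
      haveI : (K P).Normal := normalizer_eq_top_iff.1 hM
      haveI : Group.IsNilpotent (G ⧸ K P) :=
        (IsPGroup.of_card (p := p) (hK P)).isNilpotent
      rw [Carter.eq_top_of_normalizer_eq hKC hC.2]
      exact le_top
  · set H := C ⊔ N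
    have hrH : ∀ q : Nat.Primes, ∃ k, (K q).relIndex H = (q : ℕ) ^ k := by
      intro q
      obtain ⟨a, ha⟩ := hr q
      obtain ⟨b, hb⟩ := CS.relIndex_normal hK N q
      have := relIndex_sup_normal_dvd_mul (K q) C N
      rw [ha, hb, ← pow_add] at this
      obtain ⟨j, -, hj⟩ := (Nat.dvd_prime_pow q.2).1 this
      exact ⟨j, hj⟩
    have h3 := ih H (card_lt_of_ne_top H hH) inferInstance _ (CS.subgroupOf hK H hrH) _
      (Carter.isCarter_subgroupOf hC le_sup_left) (fun q => by
        rw [relIndex_subgroupOf le_sup_left]; exact hr q)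
    intro x hx
    have : (⟨x, h2 hx⟩ : H) ∈ systemNormalizer (fun q => (K q).subgroupOf H) := by
      refine mem_iInf.2 fun q => ?_
      exact le_normalizer_comap H.subtype (systemNormalizer_le K q hx)
    exact h3 this

variable {G : Type*} [Group G]

/-- Every Carter subgroup contains a system normalizer. -/
theorem exists_systemNormalizer_le_carter [Finite G] [hG : Group.IsSolvable G] {C : Subgroup G}
    (hC : IsCarterSubgroup C) :
    ∃ K : Nat.Primes → Subgroup G, IsComplementSystem K ∧ systemNormalizer K ≤ C := by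
  obtain ⟨K, hK, hr⟩ := exists_isComplementSystem_reduces C
  exact ⟨K, hK, systemNormalizer_le_carter G hG K hK C hC hr⟩

/-- Every system normalizer lies in a Carter subgroup. -/
theorem exists_carter_ge_systemNormalizer [Finite G] [hG : Group.IsSolvable G]
    {K : Nat.Primes → Subgroup G} (hK : IsComplementSystem K) :
    ∃ C : Subgroup G, IsCarterSubgroup C ∧ systemNormalizer K ≤ C := by
  obtain ⟨C, hC⟩ := Carter.exists_carter G hG
  obtain ⟨L, hL, hLC⟩ := exists_systemNormalizer_le_carter hC
  obtain ⟨g, hg⟩ := CS.exists_conj hL hK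
  refine ⟨MulAut.conj g • C, Carter.isCarter_conj_smul hC g, ?_⟩
  rw [← funext hg, systemNormalizer_conj]
  exact pointwise_smul_le_pointwise_smul_iff.2 hLC

/-- In a nilpotent-by-nilpotent group a Carter subgroup is a system normalizer. -/
theorem exists_carter_eq_systemNormalizer [Finite G] (F : Subgroup G) [F.Normal]
    (hF : Group.IsNilpotent F) (hGF : Group.IsNilpotent (G ⧸ F)) {C : Subgroup G}
    (hC : IsCarterSubgroup C) :
    ∃ K : Nat.Primes → Subgroup G, IsComplementSystem K ∧ C = systemNormalizer K := by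
  haveI hG : Group.IsSolvable G :=
    isSolvable_of_normal_of_quotient F IsNilpotent.to_isSolvable IsNilpotent.to_isSolvable
  obtain ⟨K, hK, hr⟩ := exists_isComplementSystem_reduces C
  refine ⟨K, hK, le_antisymm (le_iInf fun q => ?_) (systemNormalizer_le_carter G hG K hK C hC hr)⟩
  haveI := Fact.mk q.2
  have htop : C ⊔ F = ⊤ := Carter.eq_top_of_normalizer_eq (Q := F) le_sup_right
    (Carter.normalizer_eq_of_carter_le hC le_sup_left)
  obtain ⟨a, ha⟩ := hr q
  obtain ⟨b, hb⟩ := CS.relIndex_normal hK F q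
  have h1 := relIndex_inf_sup_inf_dvd (K q) C F
  rw [htop, relIndex_top_right, ha, hb, ← pow_add] at h1
  rw [← eq_of_le_of_index_dvd_pow (sup_le inf_le_left inf_le_left) (CS.coprime_card hK q) h1]
  refine le_normalizer_sup ?_ ?_
  · exact le_normalizer.trans
      (normalizer_le_normalizer_inf_of_isNilpotent (K q) C hC.1 (CS.coprime_card hK q) ha)
  · exact le_normalizer_of_normal.trans
      (normalizer_le_normalizer_inf_of_isNilpotent (K q) F hF (CS.coprime_card hK q) hb)

end Cfsg.Agent.Solv
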